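/-
Piece A1 of helper94's Sp rows farm (bulletin #1474), by helper67.
-/
import Cfsg.Agent.Lib.Helper94.SpRow.Base
import Cfsg.Agent.S0752

set_option autoImplicit false

namespace Cfsg.Agent.Lib.Helper67.SpRow

open Cfsg Cfsg.Geo Matrix Cfsg.Agent.Lib.Helper94.SpRow
open scoped MatrixGroups

variable {F : Type*} [Field F] {m : ℕ}

/-- A1 -/
theorem even_finrank_of_nondeg {W : Submodule F (Fin m ⊕ Fin m → F)}
    (hW : IsNondegenerateOn (sympForm m F) W) : Even (Module.finrank F W) := by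
  classical
  let B : LinearMap.BilinForm F W :=
    LinearMap.mk₂ F (fun u v : W => sympForm m F (u : Fin m ⊕ Fin m → F) (v : Fin m ⊕ Fin m → F))
      (fun x y v => sf_add_left _ _ _) (fun c x v => sf_smul_left _ _ _)
      (fun v x y => sf_add_right _ _ _) (fun c v x => sf_smul_right _ _ _)
  have hA : B.IsAlt := fun v => sf_self _
  obtain ⟨a, k, b, -, -, -, h4⟩ := Cfsg.Agent.S0752.result B hA
  have hk : k = 0 := by
    by_contra hne
    have j : Fin k := ⟨0, Nat.pos_of_ne_zero hne⟩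
    have hb0 : ((b (Sum.inr j) : W) : Fin m ⊕ Fin m → F) ≠ 0 := by
      intro h
      exact b.ne_zero (Sum.inr j) (Subtype.ext h)
    obtain ⟨x, hxW, hx⟩ := (hW _ (b (Sum.inr j)).2 hb0).2
    exact hx (h4 j ⟨x, hxW⟩)
  subst hk
  rw [Module.finrank_eq_card_basis b]
  simp

end Cfsg.Agent.Lib.Helper67.SpRow
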