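/-
Pieces N1, N1' of helper94's Sp rows farm (bulletin #1474), by helper67.
-/
import Cfsg.Agent.Lib.Helper94.SpRow.Base

set_option autoImplicit false

namespace Cfsg.Agent.Lib.Helper67.SpRow

open Cfsg Cfsg.Geo Matrix Cfsg.Agent.Lib.Helper94.SpRow
open scoped MatrixGroups

variable {F : Type*} [Field F] {m : ℕ}

/-- N1 -/
theorem sp_not_le_stab (W : Submodule F (Fin m ⊕ Fin m → F)) (h0 : W ≠ ⊥) (h1 : W ≠ ⊤) :
    ¬ spGL m F ≤ subspaceStabilizer W := by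
  obtain ⟨w0, hw0, hw0ne⟩ := Submodule.exists_mem_ne_zero_of_ne_bot h0
  obtain ⟨v1, hv1⟩ : ∃ v1, v1 ∉ W := by
    by_contra hcon
    push Not at hcon
    exact h1 (eq_top_iff.2 fun x _ => hcon x)
  obtain ⟨x, hx⟩ := sf_exists_ne hw0ne
  have hx' : sympForm m F w0 x ≠ 0 := by rw [sf_swap]; exact neg_ne_zero.2 hx
  obtain ⟨v, hvW, hv⟩ : ∃ v, v ∉ W ∧ sympForm m F w0 v ≠ 0 := by
    by_cases h2 : sympForm m F w0 v1 = 0
    · by_cases h3 : x ∈ W
      · refine ⟨v1 + x, fun h => hv1 ?_, ?_⟩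
        · have := W.sub_mem h h3
          rwa [add_sub_cancel_right] at this
        · rw [sf_add_right, h2, zero_add]; exact hx'
      · exact ⟨x, h3, hx'⟩
    · exact ⟨v1, hv1, h2⟩
  apply not_le_of_tvG v 1
  intro hmem
  have h2 : ((tvG v 1 : GL (Fin m ⊕ Fin m) F) : Matrix _ _ F) *ᵥ w0 ∈ W := (hmem w0).1 hw0
  rw [tvG_mulVec, one_mul] at h2
  have h3 := W.sub_mem h2 hw0
  rw [add_sub_cancel_left] at h3
  exact hvW ((W.smul_mem_iff hv).1 h3)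

/-- N1' -/
theorem ne_top_of_ts {W : Submodule F (Fin m ⊕ Fin m → F)} (h0 : W ≠ ⊥)
    (hW : IsTotallySingularFor (sympForm m F) W) : W ≠ ⊤ := by
  rintro rfl
  obtain ⟨w0, _, hw0ne⟩ := Submodule.exists_mem_ne_zero_of_ne_bot h0
  obtain ⟨x, hx⟩ := sf_exists_ne hw0ne
  exact hx (hW x trivial w0 trivial)

end Cfsg.Agent.Lib.Helper67.SpRow
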