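/-
Piece N2 of helper94's Sp rows farm (bulletin #1474), by helper67.
-/
import Cfsg.Agent.Lib.Helper94.SpRow.Base

set_option autoImplicit false

namespace Cfsg.Agent.Lib.Helper67.SpRow

open Cfsg Cfsg.Geo Matrix Cfsg.Agent.Lib.Helper94.SpRow
open scoped MatrixGroups

variable {F : Type*} [Field F] {m : ℕ}

/-- a sum of non-zero vectors of two different members of an independent family lies in no member -/
theorem add_not_mem_of_indep {V : Type*} [AddCommGroup V] [Module F V] {t : ℕ}
    {D : Fin t → Submodule F V} (hD : iSupIndep D) {i j : Fin t} (hij : i ≠ j) {a b : V}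
    (ha : a ∈ D i) (ha0 : a ≠ 0) (hb : b ∈ D j) (hb0 : b ≠ 0) (l : Fin t) : a + b ∉ D l := by
  intro hl
  have hdisj : Disjoint (D i) (⨆ (k : Fin t) (_ : k ≠ i), D k) := hD i
  have hle : ∀ k, k ≠ i → D k ≤ ⨆ (k : Fin t) (_ : k ≠ i), D k :=
    fun k hk => le_iSup₂_of_le k hk le_rfl
  by_cases hli : l = i
  · subst hli
    have hb' : b ∈ D l := ((D l).add_mem_iff_right ha).1 hl
    exact hb0 ((Submodule.disjoint_def.1 hdisj) b hb' (hle j hij.symm hb))
  · have ha' : a ∈ ⨆ (k : Fin t) (_ : k ≠ i), D k := by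
      have h1 := (⨆ (k : Fin t) (_ : k ≠ i), D k).sub_mem (hle l hli hl) (hle j hij.symm hb)
      rwa [add_sub_cancel_right] at h1
    exact ha0 ((Submodule.disjoint_def.1 hdisj) a ha ha')

/-- N2 -/
theorem sp_not_le_decomp {t k : ℕ} (D : Fin t → Submodule F (Fin m ⊕ Fin m → F))
    (hD : IsMDecomposition k D) : ¬ spGL m F ≤ decompositionStabilizer D := by
  intro hle
  have hmap : ∀ (v : Fin m ⊕ Fin m → F) (c : F) (i : Fin t) (u : Fin m ⊕ Fin m → F), u ∈ D i →
      ∃ l, u + (c * sympForm m F u v) • v ∈ D l := by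
    intro v c i u hu
    obtain ⟨σ, hσ⟩ := hle (tvG_mem v c)
    refine ⟨σ i, ?_⟩
    rw [← hσ i, ← tvG_mulVec, ← Matrix.toLin'_apply]
    exact Submodule.mem_map_of_mem hu
  by_cases hA : ∃ (i j : Fin t) (u w : Fin m ⊕ Fin m → F), i ≠ j ∧ u ∈ D i ∧ w ∈ D j ∧
      sympForm m F u w ≠ 0
  · obtain ⟨i, j, u, w, hij, hu, hw, huw⟩ := hA
    have hu0 : u ≠ 0 := by
      rintro rfl
      exact huw (sf_zero_left _)
    have hw0 : w ≠ 0 := by
      rintro rfl
      exact huw (sf_zero_right _)
    obtain ⟨l, hl⟩ := hmap w 1 i u hu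
    rw [one_mul] at hl
    exact add_not_mem_of_indep hD.indep hij hu hu0 ((D j).smul_mem _ hw)
      (smul_ne_zero huw hw0) l hl
  · push Not at hA
    have ht := hD.two_le
    let i0 : Fin t := ⟨0, by omega⟩
    let i1 : Fin t := ⟨1, by omega⟩
    have h01 : i0 ≠ i1 := by
      intro h
      have := congrArg Fin.val h
      simp [i0, i1] at this
    have hne : ∀ i, D i ≠ ⊥ := by
      intro i h
      have := hD.finrank_eq i
      rw [h, finrank_bot] at this
      have := hD.pos
      omega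
    obtain ⟨u, huD, hu0⟩ := Submodule.exists_mem_ne_zero_of_ne_bot (hne i0)
    obtain ⟨w, hwD, hw0⟩ := Submodule.exists_mem_ne_zero_of_ne_bot (hne i1)
    obtain ⟨x, hx⟩ := sf_exists_ne hu0
    let K : Submodule F (Fin m ⊕ Fin m → F) :=
      { carrier := {y | sympForm m F y u = 0}
        add_mem' := by
          intro a b ha hb
          simp only [Set.mem_setOf_eq] at ha hb ⊢
          rw [sf_add_left, ha, hb, add_zero]
        zero_mem' := sf_zero_left _
        smul_mem' := by
          intro c a ha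
          simp only [Set.mem_setOf_eq] at ha ⊢
          rw [sf_smul_left, ha, mul_zero] }
    have hCK : (⨆ (j : Fin t) (_ : j ≠ i0), D j) ≤ K := by
      refine iSup₂_le fun j hj y hy => ?_
      exact hA j i0 y u hj hy huD
    have hxtop : x ∈ D i0 ⊔ ⨆ (j : Fin t) (_ : j ≠ i0), D j := by
      rw [← iSup_split_single, hD.iSup_eq_top]; trivial
    obtain ⟨u', hu', c', hc', rfl⟩ := Submodule.mem_sup.1 hxtop
    have hc0 : sympForm m F c' u = 0 := hCK hc'
    rw [sf_add_left, hc0, add_zero] at hx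
    obtain ⟨l, hl⟩ := hmap (u + w) 1 i0 u' hu'
    rw [one_mul, sf_add_right, hA i0 i1 u' w h01 hu' hwD, add_zero, smul_add, ← add_assoc] at hl
    refine add_not_mem_of_indep hD.indep h01 ((D i0).add_mem hu' ((D i0).smul_mem _ huD)) ?_
      ((D i1).smul_mem _ hwD) (smul_ne_zero hx hw0) l hl
    intro h0
    have := congrArg (fun z => sympForm m F z u) h0
    simp only [sf_add_left, sf_smul_left, sf_self, mul_zero, add_zero, sf_zero_left] at this
    exact hx this

end Cfsg.Agent.Lib.Helper67.SpRow
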