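/-
Piece N8 of helper94's Sp rows farm (bulletin #1474), by helper67.
-/
import Cfsg.Agent.Lib.Helper94.SpRow.Base

set_option autoImplicit false

namespace Cfsg.Agent.Lib.Helper67.SpRow

open Cfsg Cfsg.Geo Matrix Cfsg.Agent.Lib.Helper94.SpRow
open scoped MatrixGroups

variable {F : Type*} [Field F] {m : ℕ}

/-- a transvection `tvG v 1` with `Q v ≠ -1` is not a similarity of `Q` -/
theorem tvG_not_mem_quadSim (Q : (Fin m ⊕ Fin m → F) → F)
    (hQ : IsNondegenerateQuadraticForm Q)
    (hp : ∀ u v, QuadraticMap.polar Q u v = sympForm m F u v)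
    {v : Fin m ⊕ Fin m → F} (hv : v ≠ 0) (hκ : Q v + 1 ≠ 0) :
    tvG v (1 : F) ∉ quadSimilarityGroup Q := by
  rintro ⟨c, hc⟩
  have hexp : ∀ u w, Q (u + w) = Q u + Q w + sympForm m F u w := by
    intro u w
    rw [← hp u w, QuadraticMap.polar]; ring
  have key : ∀ x, (c : F) * Q x = Q x + (Q v + 1) * sympForm m F x v ^ 2 := by
    intro x
    rw [← hc x, tvG_mulVec, one_mul, hexp, hQ.smul, sf_smul_right]
    ring
  by_cases hc1 : (c : F) = 1
  · obtain ⟨x, hx⟩ := sf_exists_eq_one hv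
    have := key x
    rw [hc1, hx, one_mul, one_pow, mul_one] at this
    exact hκ (by simpa using this.symm)
  · have hc1' : (c : F) - 1 ≠ 0 := sub_ne_zero.2 hc1
    have hQx : ∀ x, Q x = ((c : F) - 1)⁻¹ * (Q v + 1) * sympForm m F x v ^ 2 := by
      intro x
      have h := key x
      have h2 : ((c : F) - 1) * Q x = (Q v + 1) * sympForm m F x v ^ 2 := by
        rw [sub_mul, one_mul, h]; ring
      rw [mul_assoc, ← h2, ← mul_assoc, inv_mul_cancel₀ hc1', one_mul]
    obtain ⟨k, hk⟩ : ∃ k : F, ∀ x, Q x = k * sympForm m F x v ^ 2 := ⟨_, hQx⟩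
    obtain ⟨y, hy⟩ := sf_exists_ne hv
    apply hy
    have h1 := hexp y v
    rw [hk (y + v), hk y, hk v, sf_add_left, sf_self, add_zero] at h1
    have h2 : k * sympForm m F y v ^ 2 = k * sympForm m F y v ^ 2 + sympForm m F y v := by
      calc _ = _ := h1
        _ = _ := by ring
    simpa using h2

/-- N8 -/
theorem sp_not_le_quadSim (hm : 2 ≤ m) (Q : (Fin m ⊕ Fin m → F) → F)
    (hQ : IsNondegenerateQuadraticForm Q)
    (hp : ∀ u v, QuadraticMap.polar Q u v = sympForm m F u v) :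
    ¬ spGL m F ≤ quadSimilarityGroup Q := by
  set u : Fin m ⊕ Fin m → F := Pi.single (Sum.inl ⟨0, by omega⟩) 1 with hu
  set w : Fin m ⊕ Fin m → F := Pi.single (Sum.inl ⟨1, by omega⟩) 1 with hw
  have hne : (Sum.inl ⟨0, by omega⟩ : Fin m ⊕ Fin m) ≠ Sum.inl ⟨1, by omega⟩ := by
    intro h
    have := Sum.inl.inj h
    simp at this
  have hu0 : u ≠ 0 := by
    intro h
    have := congrFun h (Sum.inl ⟨0, by omega⟩)
    simp [hu] at this
  have hw0 : w ≠ 0 := by
    intro h
    have := congrFun h (Sum.inl ⟨1, by omega⟩)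
    simp [hw] at this
  have huw0 : u + w ≠ 0 := by
    intro h
    have := congrFun h (Sum.inl ⟨0, by omega⟩)
    simp [hu, hw, Pi.single_eq_of_ne hne] at this
  have hf : sympForm m F u w = 0 := by
    simp [sympForm, Matrix.J, hu, hw]
  have hexp : Q (u + w) = Q u + Q w := by
    have := hp u w
    rw [QuadraticMap.polar, hf] at this
    linear_combination this
  obtain ⟨v, hv, hκ⟩ : ∃ v : Fin m ⊕ Fin m → F, v ≠ 0 ∧ Q v + 1 ≠ 0 := by
    by_contra hcon
    push Not at hcon
    have h1 := hcon u hu0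
    have h2 := hcon w hw0
    have h3 := hcon (u + w) huw0
    rw [hexp] at h3
    have : (1 : F) = 0 := by linear_combination h1 + h2 - h3
    exact one_ne_zero this
  exact not_le_of_tvG v 1 (tvG_not_mem_quadSim Q hQ hp hv hκ)

end Cfsg.Agent.Lib.Helper67.SpRow
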